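import Cfsg.Agent.Lib.QuadClass.Witt

/-! Discriminants of quadratic forms. -/
set_option autoImplicit false

namespace CfsgLib.QuadClass
open Module CfsgLib.Orth.Hyperbolic CfsgLib.Orth.Binary CfsgLib.Orth.Models

variable {F : Type*} [Field F] {V : Type*} [AddCommGroup V] [Module F V]

/-- Gram matrix of the polar form -/
noncomputable def gram {ι : Type*} (Q : QuadraticForm F V) (b : Basis ι F V) : Matrix ι ι F :=
  Matrix.of fun i j => QuadraticMap.polar Q (b i) (b j)

theorem gram_det_congr {W : Type*} [AddCommGroup W] [Module F W] {ι κ : Type*} [Fintype ι] [DecidableEq ι]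
    [Fintype κ] [DecidableEq κ] {Q : QuadraticForm F V} {R : QuadraticForm F W} (h : Equiv' Q R)
    (b : Basis ι F V) (c : Basis κ F W) : ∃ d : F, d ≠ 0 ∧ (gram Q b).det = d ^ 2 * (gram R c).det := by
  obtain ⟨e, he⟩ := h
  set b' := b.map e with hb'
  have h1 : gram Q b = gram R b' := by
    ext i j
    simp only [gram, Matrix.of_apply, hb', Basis.map_apply, QuadraticMap.polar, ← map_add, he]
  let σ : κ ≃ ι := c.indexEquiv b'
  set c' := c.reindex σ with hc'
  have h2 : (gram R c').det = (gram R c).det := by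
    rw [show gram R c' = (gram R c).submatrix σ.symm σ.symm by
      ext i j; simp [gram, hc']]
    exact Matrix.det_submatrix_equiv_self _ _
  have key : ∀ (bb : Basis ι F W), gram R bb = LinearMap.BilinForm.toMatrix bb (QuadraticMap.polarBilin R) := by
    intro bb; ext i j
    rw [LinearMap.BilinForm.toMatrix_apply]; rfl
  have h3 := congrArg Matrix.det (LinearMap.BilinForm.toMatrix_mul_basis_toMatrix c' b' (QuadraticMap.polarBilin R))
  rw [Matrix.det_mul, Matrix.det_mul, Matrix.det_transpose, ← key, ← key, ← h1, h2] at h3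
  refine ⟨(c'.toMatrix b').det, ?_, by rw [← h3]; ring⟩
  intro h0
  have := congrArg Matrix.det (c'.toMatrix_mul_toMatrix_flip b')
  rw [Matrix.det_mul, h0, zero_mul, Matrix.det_one] at this
  exact zero_ne_one this

theorem gram_std_of_apply {ι : Type*} [Fintype ι] [DecidableEq ι] (Q : QuadraticForm F (ι → F)) :
    gram Q (Pi.basisFun F ι) = Matrix.of fun i j => QuadraticMap.polar Q (Pi.single i 1) (Pi.single j 1) := by
  ext i j; simp [gram]

theorem polar_plus (m : ℕ) (u v : Fin m ⊕ Fin m → F) :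
    QuadraticMap.polar (plusQ F m) u v =
      ∑ i : Fin m, (u (Sum.inl i) * v (Sum.inr i) + u (Sum.inr i) * v (Sum.inl i)) := by
  simp only [QuadraticMap.polar, plusQ_apply, Cfsg.quadFormPlus, ← Finset.sum_sub_distrib]
  exact Finset.sum_congr rfl fun i _ => by simp only [Pi.add_apply]; ring

theorem gram_plus (m : ℕ) :
    gram (plusQ F m) (Pi.basisFun F _) = Matrix.fromBlocks 0 1 1 0 := by
  ext i j
  rw [gram, Matrix.of_apply, Pi.basisFun_apply, Pi.basisFun_apply, polar_plus]
  rcases i with i | i <;> rcases j with j | j <;>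
    simp [Pi.single_apply, Matrix.one_apply, eq_comm, Finset.sum_add_distrib]

theorem det_swap (m : ℕ) :
    (Matrix.fromBlocks 0 1 1 0 : Matrix (Fin m ⊕ Fin m) (Fin m ⊕ Fin m) F).det = (-1) ^ m := by
  have h : (Matrix.fromBlocks 1 1 0 1 : Matrix (Fin m ⊕ Fin m) (Fin m ⊕ Fin m) F) * Matrix.fromBlocks 0 1 1 0 =
      Matrix.fromBlocks 1 1 1 0 := by
    rw [Matrix.fromBlocks_multiply]; simp
  have h' := congrArg Matrix.det h
  rw [Matrix.det_mul, Matrix.det_fromBlocks_zero₂₁, Matrix.det_one, one_mul, one_mul, Matrix.det_fromBlocks_one₁₁,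
    one_mul, zero_sub, Matrix.det_neg, Matrix.det_one, mul_one, Fintype.card_fin] at h'
  exact h'

theorem det_plus (m : ℕ) : (gram (plusQ F m) (Pi.basisFun F _)).det = (-1) ^ m := by
  rw [gram_plus, det_swap]

theorem polar_minus (m : ℕ) (a b : F) (u v : (Fin m ⊕ Fin m) ⊕ Fin 2 → F) :
    QuadraticMap.polar (minusQ m a b) u v =
      QuadraticMap.polar (plusQ F m) (u ∘ Sum.inl) (v ∘ Sum.inl) +
        QuadraticMap.polar (bin a b) (u ∘ Sum.inr) (v ∘ Sum.inr) := by
  simp only [QuadraticMap.polar, minusQ_apply, plusQ_apply, bin_apply, Cfsg.quadFormMinus, Cfsg.quadFormPlus,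
    Pi.add_apply, Function.comp_apply]
  ring

theorem gram_minus (m : ℕ) (a b : F) :
    gram (minusQ m a b) (Pi.basisFun F _) = Matrix.fromBlocks (Matrix.fromBlocks 0 1 1 0) 0 0 !![2, a; a, 2 * b] := by
  have hl : ∀ (i : Fin m ⊕ Fin m), (Pi.single (Sum.inl i) (1 : F) : (Fin m ⊕ Fin m) ⊕ Fin 2 → F) ∘ Sum.inl = Pi.single i 1 := by
    intro i; funext k; simp [Pi.single_apply]
  have hr : ∀ (i : Fin 2), (Pi.single (Sum.inr i) (1 : F) : (Fin m ⊕ Fin m) ⊕ Fin 2 → F) ∘ Sum.inr = Pi.single i 1 := by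
    intro i; funext k; simp [Pi.single_apply]
  have hl0 : ∀ (i : Fin 2), (Pi.single (Sum.inr i) (1 : F) : (Fin m ⊕ Fin m) ⊕ Fin 2 → F) ∘ Sum.inl = 0 := by
    intro i; funext k; simp
  have hr0 : ∀ (i : Fin m ⊕ Fin m), (Pi.single (Sum.inl i) (1 : F) : (Fin m ⊕ Fin m) ⊕ Fin 2 → F) ∘ Sum.inr = 0 := by
    intro i; funext k; simp
  ext i j
  rw [gram, Matrix.of_apply, Pi.basisFun_apply, Pi.basisFun_apply, polar_minus]
  rcases i with i | i <;> rcases j with j | j
  · rw [hl, hl, hr0, hr0, QuadraticMap.polar_zero_left, add_zero, Matrix.fromBlocks_apply₁₁, ← gram_plus]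
    simp [gram]
  · simp [hl, hl0, hr0]
  · simp [hl, hl0, hr0]
  · rw [hl0, hl0, hr, hr, QuadraticMap.polar_zero_left, zero_add, Matrix.fromBlocks_apply₂₂, polar_bin]
    fin_cases i <;> fin_cases j <;> simp <;> ring

theorem det_minus (m : ℕ) (a b : F) :
    (gram (minusQ m a b) (Pi.basisFun F _)).det = (-1) ^ m * (4 * b - a ^ 2) := by
  rw [gram_minus, Matrix.det_fromBlocks_zero₂₁, det_swap, Matrix.det_fin_two]
  congr 1
  simp
  ring

theorem det_oddC (m : ℕ) (c : F) :
    (gram (oddC F m c) (Pi.basisFun F _)).det = 2 * c * (-1) ^ m := by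
  have hg : gram (oddC F m c) (Pi.basisFun F _) =
      Matrix.fromBlocks (Matrix.of fun _ _ : Unit => 2 * c) 0 0 (Matrix.fromBlocks 0 1 1 0) := by
    ext i j
    rw [gram, Matrix.of_apply, Pi.basisFun_apply, Pi.basisFun_apply, QuadraticMap.polar, oddC_apply, oddC_apply,
      oddC_apply, ← gram_plus]
    rcases i with i | i <;> rcases j with j | j
    · simp [Pi.single_apply]; ring
    · simp [Pi.single_apply]
    · simp [Pi.single_apply]
    · rw [Matrix.fromBlocks_apply₂₂, gram, Matrix.of_apply, Pi.basisFun_apply, Pi.basisFun_apply, polar_plus]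
      simp only [Pi.add_apply, ← Finset.sum_sub_distrib, Pi.single_apply, Sum.inl_ne_inr, reduceCtorEq,
        Sum.inr.injEq, if_false, mul_zero, zero_mul, add_zero, zero_add]
      exact Finset.sum_congr rfl fun k _ => by ring
  rw [hg, Matrix.det_fromBlocks_zero₂₁, det_swap, Matrix.det_unique]
  rfl

theorem oddC_congr (m : ℕ) {c c' s : F} (hs : s ≠ 0) (h : c = c' * s ^ 2) :
    Equiv' (oddC F m c) (oddC F m c') := by
  let d : Unit ⊕ (Fin m ⊕ Fin m) → Fˣ := Sum.elim (fun _ => Units.mk0 s hs) (fun _ => 1)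
  refine ⟨LinearEquiv.piCongrRight fun k => LinearEquiv.smulOfUnit (d k), fun v => ?_⟩
  rw [oddC_apply, oddC_apply]
  show c' * ((s * v (Sum.inl ())) * (s * v (Sum.inl ()))) +
    ∑ i : Fin m, (1 * v (Sum.inr (Sum.inl i))) * (1 * v (Sum.inr (Sum.inr i))) = _
  simp only [one_mul]
  rw [h]; ring

variable [Finite F] [FiniteDimensional F V]

theorem isSquare_disc_even_iff (m : ℕ) {ι : Type*} [Fintype ι] [DecidableEq ι] (h2 : (2 : F) ≠ 0)
    (Q : QuadraticForm F V) (hQ : Nondeg Q) (h : finrank F V = 2 * (m + 1)) (b : Basis ι F V) :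
    Equiv' Q (plusQ F (m + 1)) ↔ IsSquare ((-1) ^ (m + 1) * (gram Q b).det) := by
  constructor
  · intro he
    obtain ⟨d, -, hd⟩ := gram_det_congr he b (Pi.basisFun F _)
    rw [hd, det_plus]
    exact ⟨d * (-1) ^ (m + 1), by ring⟩
  · intro hsq
    refine (classify_even m Q hQ h).resolve_right ?_
    rintro ⟨ζ, hζ, he⟩
    obtain ⟨d, hd0, hd⟩ := gram_det_congr he b (Pi.basisFun F _)
    rw [hd, det_minus] at hsq
    obtain ⟨s, hs⟩ := hsq
    refine not_isSquare_disc hζ h2 ⟨s / d, ?_⟩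
    field_simp
    have h1 : ((-1 : F) ^ m) ^ 2 = 1 := by rw [← pow_mul, mul_comm, pow_mul, neg_one_sq, one_pow]
    linear_combination hs + (d ^ 2 * (4 * ζ - 1)) * h1

theorem det_gram_ne_zero {ι : Type*} [Fintype ι] [DecidableEq ι] (Q : QuadraticForm F V) (hQ : Nondeg Q)
    (b : Basis ι F V) : (gram Q b).det ≠ 0 := by
  intro h0
  obtain ⟨v, hv, hvv⟩ := Matrix.exists_vecMul_eq_zero_iff.2 h0
  obtain ⟨y, hy⟩ := hQ (b.equivFun.symm v) (by rwa [ne_eq, LinearEquiv.map_eq_zero_iff])
  apply hy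
  have hB : ∀ z, QuadraticMap.polarBilin Q (b.equivFun.symm v) z = 0 := by
    have : QuadraticMap.polarBilin Q (b.equivFun.symm v) = 0 := by
      refine b.ext fun j => ?_
      rw [Basis.equivFun_symm_apply, map_sum, LinearMap.sum_apply]
      have := congrFun hvv j
      simp only [Matrix.vecMul, dotProduct, gram, Matrix.of_apply, Pi.zero_apply] at this
      simpa [map_smul] using this
    intro z; rw [this]; rfl
  exact hB y

theorem equiv_iff_disc {W : Type*} [AddCommGroup W] [Module F W] [FiniteDimensional F W] {ι κ : Type*} [Fintype ι]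
    [DecidableEq ι] [Fintype κ] [DecidableEq κ] (h2 : (2 : F) ≠ 0) {Q : QuadraticForm F V} {R : QuadraticForm F W}
    (hQ : Nondeg Q) (hR : Nondeg R) (b : Basis ι F V) (c : Basis κ F W) (hd : finrank F V = finrank F W) :
    Equiv' Q R ↔ IsSquare ((gram Q b).det * (gram R c).det) := by
  constructor
  · intro he
    obtain ⟨d, -, hd⟩ := gram_det_congr he b c
    exact ⟨d * (gram R c).det, by rw [hd]; ring⟩
  · intro hsq
    rcases Nat.even_or_odd' (finrank F V) with ⟨k, hk | hk⟩
    · rcases k with - | m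
      · exact equiv_zero Q R (by omega) (by omega)
      refine equiv_of_singular_iff m hQ hR (by omega) (by omega) ?_
      rw [isSquare_disc_even_iff m h2 Q hQ (by omega) b, isSquare_disc_even_iff m h2 R hR (by omega) c]
      obtain ⟨t, ht⟩ := hsq
      have h1 : ((-1 : F) ^ (m + 1)) ^ 2 = 1 := by rw [← pow_mul, mul_comm, pow_mul, neg_one_sq, one_pow]
      have hb := det_gram_ne_zero Q hQ b
      have hc := det_gram_ne_zero R hR c
      constructor
      · rintro ⟨s, hs⟩
        refine ⟨t * (-1) ^ (m + 1) / s, ?_⟩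
        have hs0 : s ≠ 0 := by
          rintro rfl
          exact mul_ne_zero (pow_ne_zero (m + 1) (neg_ne_zero.2 one_ne_zero)) hb (by simpa using hs)
        rw [eq_comm, div_mul_div_comm, div_eq_iff (mul_ne_zero hs0 hs0)]
        linear_combination ((-1) ^ (m + 1) * (gram R c).det) * hs - ((-1) ^ (m + 1)) ^ 2 * ht
      · rintro ⟨s, hs⟩
        refine ⟨t * (-1) ^ (m + 1) / s, ?_⟩
        have hs0 : s ≠ 0 := by
          rintro rfl
          exact mul_ne_zero (pow_ne_zero (m + 1) (neg_ne_zero.2 one_ne_zero)) hc (by simpa using hs)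
        rw [eq_comm, div_mul_div_comm, div_eq_iff (mul_ne_zero hs0 hs0)]
        linear_combination ((-1) ^ (m + 1) * (gram Q b).det) * hs - ((-1) ^ (m + 1)) ^ 2 * ht
    · obtain ⟨-, a, ha, he⟩ := classify_odd k Q hQ hk
      obtain ⟨-, a', ha', he'⟩ := classify_odd k R hR (hd ▸ hk)
      obtain ⟨d, hd0, hdb⟩ := gram_det_congr he b (Pi.basisFun F _)
      obtain ⟨d', hd0', hdc⟩ := gram_det_congr he' c (Pi.basisFun F _)
      obtain ⟨t, ht⟩ := hsq
      rw [hdb, hdc, det_oddC, det_oddC] at ht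
      have h1 : ((-1 : F) ^ k) ^ 2 = 1 := by rw [← pow_mul, mul_comm, pow_mul, neg_one_sq, one_pow]
      have hne : t ≠ 0 := by
        rintro rfl
        simp [hd0, hd0', h2, ha, ha'] at ht
      refine he.trans ((oddC_congr k (s := t / (2 * a' * d * d')) ?_ ?_).trans he'.symm)
      · exact div_ne_zero hne (by simp [hd0, hd0', h2, ha'])
      · field_simp
        linear_combination ht - (4 * a * a' * d ^ 2 * d' ^ 2) * h1

end CfsgLib.QuadClass
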