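import Cfsg.Agent.Lib.QuadClass.Disc

/-! Bases transported from the standard forms. -/
set_option autoImplicit false

namespace CfsgLib.QuadClass
open Module CfsgLib.Orth.Hyperbolic CfsgLib.Orth.Binary CfsgLib.Orth.Models

variable {F : Type*} [Field F] {V : Type*} [AddCommGroup V] [Module F V]

theorem exists_basis {ι : Type*} [Fintype ι] [DecidableEq ι] {Q : QuadraticForm F V} {R : QuadraticForm F (ι → F)}
    (h : Equiv' Q R) : ∃ b : Basis ι F V, (∀ i, Q (b i) = R (Pi.single i 1)) ∧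
      ∀ i j, QuadraticMap.polar Q (b i) (b j) = QuadraticMap.polar R (Pi.single i 1) (Pi.single j 1) := by
  obtain ⟨e, he⟩ := h.symm
  refine ⟨(Pi.basisFun F ι).map e, fun i => ?_, fun i j => ?_⟩
  · rw [Basis.map_apply, he, Pi.basisFun_apply]
  · simp only [Basis.map_apply, Pi.basisFun_apply, QuadraticMap.polar, ← map_add, he]

theorem gram_std {ι : Type*} [Fintype ι] [DecidableEq ι] (Q : QuadraticForm F (ι → F)) :
    (Matrix.of fun i j : ι => QuadraticMap.polar ⇑Q (Pi.single i 1) (Pi.single j 1)) = gram Q (Pi.basisFun F ι) :=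
  (gram_std_of_apply Q).symm

theorem polar_oddC (m : ℕ) (c : F) (u v : Unit ⊕ (Fin m ⊕ Fin m) → F) :
    QuadraticMap.polar (oddC F m c) u v = 2 * c * (u (Sum.inl ()) * v (Sum.inl ())) +
      ∑ i : Fin m, (u (Sum.inr (Sum.inl i)) * v (Sum.inr (Sum.inr i)) + u (Sum.inr (Sum.inr i)) * v (Sum.inr (Sum.inl i))) := by
  have h : ∑ i : Fin m, (u (Sum.inr (Sum.inl i)) * v (Sum.inr (Sum.inr i)) + u (Sum.inr (Sum.inr i)) * v (Sum.inr (Sum.inl i))) =
      (∑ i : Fin m, (u + v) (Sum.inr (Sum.inl i)) * (u + v) (Sum.inr (Sum.inr i))) -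
        (∑ i : Fin m, u (Sum.inr (Sum.inl i)) * u (Sum.inr (Sum.inr i))) -
        ∑ i : Fin m, v (Sum.inr (Sum.inl i)) * v (Sum.inr (Sum.inr i)) := by
    rw [← Finset.sum_sub_distrib, ← Finset.sum_sub_distrib]
    exact Finset.sum_congr rfl fun i _ => by simp only [Pi.add_apply]; ring
  rw [h, QuadraticMap.polar, oddC_apply, oddC_apply, oddC_apply]
  simp only [Pi.add_apply]
  ring

end CfsgLib.QuadClass
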