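import Cfsg.Agent.Lib.QuadClass.Basis

/-! Orthonormal bases of non-alternating symmetric forms in characteristic two. -/
set_option autoImplicit false

namespace CfsgLib.QuadClass.Orthonormal
open Module

variable {F : Type*} [Field F] [Finite F]

theorem exists_orthonormal (h2 : (2 : F) = 0) (n : ℕ) : ∀ {V : Type*} [AddCommGroup V] [Module F V]
    [FiniteDimensional F V] (B : LinearMap.BilinForm F V), (∀ x y, B x y = B y x) →
    (∀ x, x ≠ 0 → ∃ y, B x y ≠ 0) → finrank F V = n → (n = 0 ∨ ∃ v, B v v ≠ 0) →
    ∃ b : Fin n → V, ∀ i j, B (b i) (b j) = if i = j then 1 else 0 := by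
  induction n with
  | zero => intro V _ _ _ B _ _ _ _; exact ⟨fun i => i.elim0, fun i => i.elim0⟩
  | succ n ih =>
    intro V _ _ _ B hs hnd hd hna
    obtain ⟨v0, hv0⟩ : ∃ v0, B v0 v0 ≠ 0 := hna.resolve_left (Nat.succ_ne_zero n)
    obtain ⟨s, hsq⟩ := isSquare_of_two_eq_zero h2 (B v0 v0)⁻¹
    obtain ⟨v, hv, hgood⟩ : ∃ v, B v v = 1 ∧ (n = 0 ∨ ∃ w, B v w = 0 ∧ B w w ≠ 0) := by
      have hv : B (s • v0) (s • v0) = 1 := by
        simp only [map_smul, LinearMap.smul_apply, smul_eq_mul]
        rw [← mul_assoc, ← hsq, inv_mul_cancel₀ hv0]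
      generalize s • v0 = v at hv
      by_cases hg : n = 0 ∨ ∃ w, B v w = 0 ∧ B w w ≠ 0
      · exact ⟨v, hv, hg⟩
      rw [not_or] at hg
      obtain ⟨hn, hg⟩ := hg
      push_neg at hg
      obtain ⟨a, hva, ha0⟩ : ∃ a ∈ LinearMap.ker (B v), a ≠ 0 := by
        apply Submodule.exists_mem_ne_zero_of_ne_bot
        intro hbot
        have h := LinearMap.finrank_range_add_finrank_ker (B v)
        have := (LinearMap.range (B v)).finrank_le
        rw [finrank_self] at this
        rw [hbot, finrank_bot, hd] at h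
        omega
      have hva : B v a = 0 := hva
      obtain ⟨y, hy⟩ := hnd a ha0
      obtain ⟨b, hvb, hab⟩ : ∃ b, B v b = 0 ∧ B a b = 1 := by
        refine ⟨(B a y)⁻¹ • (y - B v y • v), ?_, ?_⟩
        · simp [hv]
        · simp only [map_smul, map_sub, smul_eq_mul, hs a v, hva, mul_zero, sub_zero]
          exact inv_mul_cancel₀ hy
      have haa : B a a = 0 := hg a hva
      have hbb : B b b = 0 := hg b hvb
      refine ⟨v + a, ?_, Or.inr ⟨v + b, ?_, ?_⟩⟩
      · simp only [map_add, LinearMap.add_apply, hv, hva, hs a v, haa, add_zero]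
      · simp only [map_add, LinearMap.add_apply, hv, hvb, hs a v, hva, hab, add_zero]
        linear_combination h2
      · simp only [map_add, LinearMap.add_apply, hv, hvb, hs b v, hbb, add_zero]
        exact one_ne_zero
    set W := LinearMap.ker (B v) with hW
    have hdW : finrank F W = n := by
      have h := LinearMap.finrank_range_add_finrank_ker (B v)
      have hr : LinearMap.range (B v) = ⊤ := LinearMap.range_eq_top.2 (fun c => ⟨c • v, by simp [hv]⟩)
      rw [hr, finrank_top, finrank_self, hd, ← hW] at h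
      omega
    obtain ⟨b, hb⟩ := ih (B.restrict W) (fun x y => hs _ _) (by
      rintro ⟨x, hx⟩ hx0
      obtain ⟨y, hy⟩ := hnd x (fun h => hx0 (Subtype.ext h))
      refine ⟨⟨y - B v y • v, by simp [hW, hv]⟩, ?_⟩
      show B x (y - B v y • v) ≠ 0
      rwa [map_sub, map_smul, hs x v, show B v x = 0 from hx, smul_zero, sub_zero]) hdW (by
      rcases hgood with h | ⟨w, hw, hw'⟩
      · exact Or.inl h
      · exact Or.inr ⟨⟨w, hw⟩, hw'⟩)
    have hvb : ∀ i, B v (b i) = 0 := fun i => (b i).2
    refine ⟨Fin.cons v (fun i => (b i : V)), fun i j => ?_⟩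
    induction i using Fin.cases with
    | zero =>
      induction j using Fin.cases with
      | zero => simpa using hv
      | succ j => simpa [(Fin.succ_ne_zero j).symm] using hvb j
    | succ i =>
      induction j using Fin.cases with
      | zero => simpa [Fin.succ_ne_zero i, hs _ v] using hvb i
      | succ j => simpa [Fin.succ_inj] using hb i j

end CfsgLib.QuadClass.Orthonormal
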