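import Cfsg.Agent.Lib.QuadClass.Witt

/-! Quadratic forms over the field of two elements with the standard polarisation. -/
set_option autoImplicit false

namespace CfsgLib.QuadClass
open Module CfsgLib.Orth.Hyperbolic CfsgLib.Orth.Binary CfsgLib.Orth.Models

/-- functions polarising to the standard alternating form -/
def Polarizes (m : ℕ) (q : (Fin m ⊕ Fin m → ZMod 2) → ZMod 2) : Prop :=
  ∀ u v, q (u + v) = q u + q v + (Cfsg.quadFormPlus m (ZMod 2) (u + v) - Cfsg.quadFormPlus m (ZMod 2) u - Cfsg.quadFormPlus m (ZMod 2) v)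

/-- the standard alternating form -/
abbrev f2 (m : ℕ) (u v : Fin m ⊕ Fin m → ZMod 2) : ZMod 2 :=
  Cfsg.quadFormPlus m (ZMod 2) (u + v) - Cfsg.quadFormPlus m (ZMod 2) u - Cfsg.quadFormPlus m (ZMod 2) v

theorem f2_eq (m : ℕ) (u v : Fin m ⊕ Fin m → ZMod 2) : f2 m u v = QuadraticMap.polar (plusQ (ZMod 2) m) u v := by
  simp only [f2, QuadraticMap.polar, plusQ_apply]

theorem two_eq_zero : (2 : ZMod 2) = 0 := by decide

theorem add_self_fun {ι : Type*} (x : ι → ZMod 2) : x + x = 0 := funext fun _ => CharTwo.add_self_eq_zero _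

theorem polarizes_translate {m : ℕ} {q : (Fin m ⊕ Fin m → ZMod 2) → ZMod 2} (hq : Polarizes m q)
    (w : Fin m ⊕ Fin m → ZMod 2) : Polarizes m (fun v => q v + f2 m v w) := by
  intro u v
  show q (u + v) + f2 m (u + v) w = (q u + f2 m u w) + (q v + f2 m v w) + f2 m u v
  rw [f2_eq m (u + v) w, f2_eq m u w, f2_eq m v w, QuadraticMap.polar_add_left, hq u v]
  ring

theorem exists_form {m : ℕ} {q : (Fin m ⊕ Fin m → ZMod 2) → ZMod 2} (hq : Polarizes m q) :
    ∃ Q : QuadraticForm (ZMod 2) (Fin m ⊕ Fin m → ZMod 2), ⇑Q = q ∧ Nondeg Q := by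
  let L : (Fin m ⊕ Fin m → ZMod 2) →ₗ[ZMod 2] ZMod 2 := AddMonoidHom.toZModLinearMap 2
    (AddMonoidHom.mk' (fun v => q v + plusQ (ZMod 2) m v) (fun u v => by
      rw [hq u v, Qadd, plusQ_apply, plusQ_apply, ← f2_eq]
      linear_combination (f2 m u v) * two_eq_zero))
  let Q := plusQ (ZMod 2) m + QuadraticMap.linMulLin L L
  have hQ : ⇑Q = q := funext fun v => by
    show plusQ (ZMod 2) m v + (q v + plusQ (ZMod 2) m v) * (q v + plusQ (ZMod 2) m v) = q v
    have : ∀ a b : ZMod 2, a + (b + a) * (b + a) = b := by decide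
    exact this _ _
  refine ⟨Q, hQ, fun u hu => ?_⟩
  obtain ⟨y, hy⟩ := nondeg_plus (F := ZMod 2) m u hu
  refine ⟨y, ?_⟩
  rw [hQ]
  have hpy : QuadraticMap.polar q u y = QuadraticMap.polar (plusQ (ZMod 2) m) u y := by
    rw [← f2_eq, QuadraticMap.polar, hq u y]; ring
  rwa [hpy]

theorem card_zero_ne_half (m : ℕ) (Q : QuadraticForm (ZMod 2) (Fin (m + 1) ⊕ Fin (m + 1) → ZMod 2)) (hQ : Nondeg Q) :
    2 * Nat.card {v // Q v = 0} ≠ 2 ^ (2 * (m + 1)) := by
  intro h
  have hpos : (0 : ℤ) < 2 ^ (m + 1) := by positivity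
  rcases classify_even m Q hQ (by simp; ring) with ⟨e, he⟩ | ⟨ζ, hζ, e, he⟩
  · have hc := card_zero_plus (F := ZMod 2) (m + 1)
    rw [← value_card_congr (⇑Q) (⇑(plusQ (ZMod 2) (m + 1))) e he, ZMod.card] at hc
    have h' : (2 : ℤ) * Nat.card {v // Q v = 0} = 2 ^ (2 * (m + 1)) := by exact_mod_cast h
    push_cast at hc
    linarith
  · have hc := card_zero_minus (F := ZMod 2) m (aniso_of_noRoot hζ)
    rw [← value_card_congr (⇑Q) (⇑(minusQ m 1 ζ)) e he, ZMod.card] at hc
    have h' : (2 : ℤ) * Nat.card {v // Q v = 0} = 2 ^ (2 * (m + 1)) := by exact_mod_cast h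
    push_cast at hc
    have e1 : (2 : ℤ) ^ (2 * (m + 1)) = 2 * 2 ^ (2 * m + 1) := by ring
    have e2 : (2 : ℤ) ^ (m + 1) = 2 * 2 ^ m := by ring
    linarith

/-- translating by `w` preserves the type exactly when `w` is singular -/
theorem translate_equiv_iff {m : ℕ} (hm : 1 ≤ m) {q : (Fin m ⊕ Fin m → ZMod 2) → ZMod 2} (hq : Polarizes m q)
    (w : Fin m ⊕ Fin m → ZMod 2) :
    (∃ g : (Fin m ⊕ Fin m → ZMod 2) ≃ₗ[ZMod 2] (Fin m ⊕ Fin m → ZMod 2), ∀ v, q v + f2 m v w = q (g v)) ↔ q w = 0 := by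
  obtain ⟨k, rfl⟩ : ∃ k, m = k + 1 := ⟨m - 1, by omega⟩
  obtain ⟨Q, rfl, hQ⟩ := exists_form hq
  have hp : ∀ u v, QuadraticMap.polar Q u v = f2 (k + 1) u v := fun u v => by
    rw [QuadraticMap.polar, hq u v]; ring
  constructor
  · rintro ⟨g, hg⟩
    by_contra hw
    have hw1 : Q w = 1 := by
      have : ∀ a : ZMod 2, a ≠ 0 → a = 1 := by decide
      exact this _ hw
    classical
    apply card_zero_ne_half k Q hQ
    have h1 : Nat.card {v // Q v = 0} = Nat.card {v // Q v ≠ 0} := by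
      calc Nat.card {v // Q v = 0} = Nat.card {v // Q v + f2 (k + 1) v w = 0} :=
            Nat.card_congr (g.toEquiv.subtypeEquiv (p := fun v => Q v + f2 (k + 1) v w = 0) (q := fun v => Q v = 0)
              (fun v => by rw [hg v]; rfl)).symm
        _ = Nat.card {v // Q v ≠ 0} := Nat.card_congr ((Equiv.addRight w).subtypeEquiv (fun v => by
              show Q v + f2 (k + 1) v w = 0 ↔ Q (v + w) ≠ 0
              rw [hq v w, hw1]
              have : ∀ a b : ZMod 2, a + b = 0 ↔ a + 1 + b ≠ 0 := by decide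
              exact this _ _))
    have h2 := Nat.card_congr (Equiv.sumCompl (fun v => Q v = 0))
    rw [Nat.card_sum, ← h1] at h2
    rw [two_mul, h2, Nat.card_fun, Nat.card_sum, Nat.card_fin, Nat.card_zmod, two_mul]
  · intro hw
    have hS : ∀ x : Fin (k + 1) ⊕ Fin (k + 1) → ZMod 2, f2 (k + 1) x x = 0 := fun x => by
      rw [← hp, polar_self', ← two_mul, two_eq_zero, zero_mul]
    let L : (Fin (k + 1) ⊕ Fin (k + 1) → ZMod 2) →ₗ[ZMod 2] (Fin (k + 1) ⊕ Fin (k + 1) → ZMod 2) :=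
      LinearMap.id + ((QuadraticMap.polarBilin Q).flip w).smulRight w
    have hL : ∀ v, L v = v + f2 (k + 1) v w • w := fun v => by
      show v + QuadraticMap.polar Q v w • w = _
      rw [hp]
    refine ⟨LinearEquiv.ofInvolutive L (fun v => ?_), fun v => ?_⟩
    · have h1 : f2 (k + 1) (L v) w = f2 (k + 1) v w := by
        rw [hL, ← hp, QuadraticMap.polar_add_left, QuadraticMap.polar_smul_left, hp, hp, hS, smul_zero, add_zero]
      rw [hL (L v), h1, hL v, add_assoc, add_self_fun, add_zero]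
    · show _ = Q (L v)
      rw [hL, Qadd, Qsmul, hw, mul_zero, add_zero, QuadraticMap.polar_smul_right, hp, smul_eq_mul]
      have : ∀ a b : ZMod 2, a + b = a + b * b := by decide
      exact this _ _

end CfsgLib.QuadClass
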